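import Mathlib
import Cfsg.Agent.H831.Short

set_option autoImplicit false

/-!
# Involution classes of 3-transposition groups: the values of `m`

If there are no short relations between commuting transpositions then the number of factors of a product
of at most three commuting transpositions is determined by the product; with the transitivity on the
commuting tuples this gives the classes of involutions.
-/

namespace Cfsg.Agent.H815.InvM

open Cfsg Cfsg.Agent.H831.Short

universe u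

variable {G : Type u} [Group G] {D : Set G}

/-- Two lists of distinct commuting members with the same product and few members in all are equal as
sets. -/
theorem mem_iff (hT : IsThreeTranspositionSet D) {n : ℕ} (hN : NoRel D n)
    (l l' : List G) (hnd : l.Nodup) (hnd' : l'.Nodup) (hlen : l.length + l'.length ≤ n)
    (hl3 : l.length ≤ 3) (hl : ∀ a ∈ l, a ∈ D) (hl' : ∀ a ∈ l', a ∈ D)
    (hc : ∀ a ∈ l, ∀ b ∈ l, Commute a b) (hc' : ∀ a ∈ l', ∀ b ∈ l', Commute a b)
    (hp : l.prod = l'.prod) : ∀ x : G, x ∈ l ↔ x ∈ l' := by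
  classical
  have hcc : ∀ a ∈ l, ∀ b ∈ l', Commute a b := by
    intro a ha b hb
    have h1 : Commute b l.prod := by
      rw [hp]
      apply Commute.list_prod_right
      intro c hc1
      exact hc' b hb c hc1
    exact (commute_of_prod hT l hnd hl hc hl3 (hl' b hb) h1 a ha).symm
  set l1 := l.filter (fun a => a ∉ l') with hl1
  set c1 := l.filter (fun a => ¬ (a ∉ l')) with hc1
  set l2 := l'.filter (fun a => a ∉ l) with hl2
  set c2 := l'.filter (fun a => ¬ (a ∉ l)) with hc2
  have e1 : l.prod = l1.prod * c1.prod := by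
    have hperm : (l1 ++ c1).Perm l := by
      have := List.filter_append_perm (fun a => decide (a ∉ l')) l
      simpa [hl1, hc1] using this
    rw [← List.prod_append]
    exact (hperm.prod_eq' (List.Pairwise.imp_of_mem (fun {a b} ha hb _ =>
      hc a (hperm.subset ha) b (hperm.subset hb)) (hperm.symm.nodup hnd))).symm
  have e2 : l'.prod = l2.prod * c2.prod := by
    have hperm : (l2 ++ c2).Perm l' := by
      have := List.filter_append_perm (fun a => decide (a ∉ l)) l'
      simpa [hl2, hc2] using this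
    rw [← List.prod_append]
    exact (hperm.prod_eq' (List.Pairwise.imp_of_mem (fun {a b} ha hb _ =>
      hc' a (hperm.subset ha) b (hperm.subset hb)) (hperm.symm.nodup hnd'))).symm
  have hcperm : c1.Perm c2 := by
    rw [List.perm_ext_iff_of_nodup (hnd.filter _) (hnd'.filter _)]
    intro a
    simp only [hc1, hc2, List.mem_filter, not_not, decide_eq_true_eq]
    tauto
  have e3 : c1.prod = c2.prod := by
    refine hcperm.prod_eq' (List.Pairwise.imp_of_mem (fun {a b} ha hb _ => ?_)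
      (hnd.filter _))
    exact hc a (List.mem_of_mem_filter ha) b (List.mem_of_mem_filter hb)
  have e4 : l1.prod = l2.prod := by
    rw [e1, e2, e3] at hp
    exact mul_right_cancel hp
  have m1 : ∀ a ∈ l1, a ∈ l ∧ a ∉ l' := by
    intro a ha
    simpa [hl1, List.mem_filter] using ha
  have m2 : ∀ a ∈ l2, a ∈ l' ∧ a ∉ l := by
    intro a ha
    simpa [hl2, List.mem_filter] using ha
  have h0 : l1 ++ l2 = [] := by
    apply hN
    · apply List.Nodup.append (hnd.filter _) (hnd'.filter _)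
      intro a ha hb
      exact (m1 a ha).2 (m2 a hb).1
    · intro a ha
      rw [List.mem_append] at ha
      rcases ha with ha | ha
      · exact hl a (m1 a ha).1
      · exact hl' a (m2 a ha).1
    · intro a ha b hb
      rw [List.mem_append] at ha hb
      rcases ha with ha | ha <;> rcases hb with hb | hb
      · exact hc a (m1 a ha).1 b (m1 b hb).1
      · exact hcc a (m1 a ha).1 b (m2 b hb).1
      · exact (hcc b (m1 b hb).1 a (m2 a ha).1).symm
      · exact hc' a (m2 a ha).1 b (m2 b hb).1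
    · rw [List.prod_append, ← e4]
      exact sq_prod hT l1 (fun a ha => hl a (m1 a ha).1)
        (fun a ha b hb => hc a (m1 a ha).1 b (m1 b hb).1)
    · rw [List.length_append]
      have h1 : l1.length ≤ l.length := List.length_filter_le _ _
      have h2 : l2.length ≤ l'.length := List.length_filter_le _ _
      omega
  rw [List.append_eq_nil_iff] at h0
  intro x
  constructor
  · intro hx
    by_contra hx'
    have : x ∈ l1 := by
      rw [hl1, List.mem_filter]
      exact ⟨hx, by simpa using hx'⟩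
    rw [h0.1] at this
    simp at this
  · intro hx
    by_contra hx'
    have : x ∈ l2 := by
      rw [hl2, List.mem_filter]
      exact ⟨hx, by simpa using hx'⟩
    rw [h0.2] at this
    simp at this

theorem length_eq (hT : IsThreeTranspositionSet D) {n : ℕ} (hN : NoRel D n)
    (l l' : List G) (hnd : l.Nodup) (hnd' : l'.Nodup) (hlen : l.length + l'.length ≤ n)
    (hl3 : l.length ≤ 3) (hl : ∀ a ∈ l, a ∈ D) (hl' : ∀ a ∈ l', a ∈ D)
    (hc : ∀ a ∈ l, ∀ b ∈ l, Commute a b) (hc' : ∀ a ∈ l', ∀ b ∈ l', Commute a b)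
    (hp : l.prod = l'.prod) : l.length = l'.length :=
  ((List.perm_ext_iff_of_nodup hnd hnd').2
    (mem_iff hT hN l l' hnd hnd' hlen hl3 hl hl' hc hc' hp)).length_eq

/-- products of `m` distinct pairwise commuting members of `D` -/
def IsProd (D : Set G) (m : ℕ) (x : G) : Prop :=
  ∃ l : List G, l.Nodup ∧ l.length = m ∧ (∀ a ∈ l, a ∈ D) ∧ (∀ a ∈ l, ∀ b ∈ l, Commute a b) ∧
    l.prod = x

/-- `m` is determined by the product, `m ≤ 3`, in types `M(22)`, `M(23)`, `M(24)` -/
theorem IsProd.unique (hT : IsThreeTranspositionSet D) (hN : NoRel D 5) {m m' : ℕ} {x : G}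
    (hm : m ≤ 3) (hm' : m' ≤ 3) (h : IsProd D m x) (h' : IsProd D m' x) : m = m' := by
  by_contra hne
  obtain ⟨l, n1, e1, m1, c1, p1⟩ := h
  obtain ⟨l', n2, e2, m2, c2, p2⟩ := h'
  apply hne
  rw [← e1, ← e2]
  exact length_eq hT hN l l' n1 n2 (by omega) (by omega) m1 m2 c1 c2 (p1.trans p2.symm)

/-- such a product is an involution -/
theorem IsProd.orderOf (hT : IsThreeTranspositionSet D) (hN : NoRel D 5) {m : ℕ} {x : G}
    (hm1 : 1 ≤ m) (hm : m ≤ 3) (h : IsProd D m x) : orderOf x = 2 := by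
  obtain ⟨l, n1, e1, m1, c1, p1⟩ := h
  have h1 : x * x = 1 := by rw [← p1]; exact sq_prod hT l m1 c1
  apply orderOf_eq_prime (by rw [pow_two, h1])
  rintro rfl
  have h2 := hN l n1 m1 c1 p1 (by omega)
  rw [h2] at e1
  simp at e1
  omega

/-- The transitivity on the commuting tuples, as conjugacy of the products. -/
theorem isConj_of_trans (t1 : ∀ a ∈ D, ∀ a' ∈ D, ∃ g : G, g * a * g⁻¹ = a')
    (t2 : ∀ a ∈ D, ∀ b ∈ D, ∀ a' ∈ D, ∀ b' ∈ D, a ≠ b → a' ≠ b' → a * b = b * a →
      a' * b' = b' * a' → ∃ g : G, g * a * g⁻¹ = a' ∧ g * b * g⁻¹ = b')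
    (t3 : ∀ a ∈ D, ∀ b ∈ D, ∀ d ∈ D, ∀ a' ∈ D, ∀ b' ∈ D, ∀ d' ∈ D, a ≠ b → a ≠ d → b ≠ d →
      a' ≠ b' → a' ≠ d' → b' ≠ d' → a * b = b * a → a * d = d * a → b * d = d * b →
      a' * b' = b' * a' → a' * d' = d' * a' → b' * d' = d' * b' →
      ∃ g : G, g * a * g⁻¹ = a' ∧ g * b * g⁻¹ = b' ∧ g * d * g⁻¹ = d')
    {m : ℕ} (hm : m ≤ 3) {x y : G} (hx : IsProd D m x) (hy : IsProd D m y) : IsConj x y := by
  obtain ⟨l, n1, e1, m1, c1, rfl⟩ := hx
  obtain ⟨l', n2, e2, m2, c2, rfl⟩ := hy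
  subst e1
  rcases l with _ | ⟨a, _ | ⟨b, _ | ⟨c, _ | ⟨d, t⟩⟩⟩⟩ <;>
    rcases l' with _ | ⟨a', _ | ⟨b', _ | ⟨c', _ | ⟨d', t'⟩⟩⟩⟩ <;>
    simp only [List.length_cons, List.length_nil] at e2 hm <;> try omega
  · exact IsConj.refl _
  · obtain ⟨g, hg⟩ := t1 a (m1 a (by simp)) a' (m2 a' (by simp))
    rw [List.prod_singleton, List.prod_singleton]
    exact isConj_iff.2 ⟨g, hg⟩
  · simp only [List.nodup_cons, List.mem_cons, List.not_mem_nil, or_false, not_or,
      List.nodup_nil, and_true, not_false_eq_true] at n1 n2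
    obtain ⟨g, h1, h2⟩ := t2 a (m1 a (by simp)) b (m1 b (by simp)) a' (m2 a' (by simp)) b'
      (m2 b' (by simp)) n1 n2 (c1 a (by simp) b (by simp)).eq (c2 a' (by simp) b' (by simp)).eq
    simp only [List.prod_cons, List.prod_nil, mul_one]
    refine isConj_iff.2 ⟨g, ?_⟩
    rw [← h1, ← h2]
    group
  · simp only [List.nodup_cons, List.mem_cons, List.not_mem_nil, or_false, not_or,
      List.nodup_nil, and_true, not_false_eq_true] at n1 n2
    obtain ⟨g, h1, h2, h3⟩ := t3 a (m1 a (by simp)) b (m1 b (by simp)) c (m1 c (by simp))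
      a' (m2 a' (by simp)) b' (m2 b' (by simp)) c' (m2 c' (by simp)) n1.1.1 n1.1.2 n1.2
      n2.1.1 n2.1.2 n2.2 (c1 a (by simp) b (by simp)).eq (c1 a (by simp) c (by simp)).eq
      (c1 b (by simp) c (by simp)).eq (c2 a' (by simp) b' (by simp)).eq
      (c2 a' (by simp) c' (by simp)).eq (c2 b' (by simp) c' (by simp)).eq
    simp only [List.prod_cons, List.prod_nil, mul_one]
    refine isConj_iff.2 ⟨g, ?_⟩
    rw [← h1, ← h2, ← h3]
    group

/-- three distinct commuting members give products of each length -/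
theorem exists_isProd {a b c : G} (ha : a ∈ D) (hb : b ∈ D) (hc : c ∈ D) (hab : a ≠ b) (hac : a ≠ c)
    (hbc : b ≠ c) (cab : Commute a b) (cac : Commute a c) (cbc : Commute b c) {m : ℕ} (h1 : 1 ≤ m)
    (h3 : m ≤ 3) : ∃ x, IsProd D m x := by
  have : m = 1 ∨ m = 2 ∨ m = 3 := by omega
  rcases this with rfl | rfl | rfl
  · exact ⟨_, [a], by simp, rfl, by simpa using ha, by simp, rfl⟩
  · refine ⟨_, [a, b], by simpa using hab, rfl, ?_, ?_, rfl⟩
    · intro x hx
      simp only [List.mem_cons, List.not_mem_nil, or_false] at hx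
      rcases hx with rfl | rfl
      exacts [ha, hb]
    · intro x hx y hy
      simp only [List.mem_cons, List.not_mem_nil, or_false] at hx hy
      rcases hx with rfl | rfl <;> rcases hy with rfl | rfl
      exacts [Commute.refl _, cab, cab.symm, Commute.refl _]
  · refine ⟨_, [a, b, c], by simp [hab, hac, hbc], rfl, ?_, ?_, rfl⟩
    · intro x hx
      simp only [List.mem_cons, List.not_mem_nil, or_false] at hx
      rcases hx with rfl | rfl | rfl
      exacts [ha, hb, hc]
    · intro x hx y hy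
      simp only [List.mem_cons, List.not_mem_nil, or_false] at hx hy
      rcases hx with rfl | rfl | rfl <;> rcases hy with rfl | rfl | rfl
      exacts [Commute.refl _, cab, cac, cab.symm, Commute.refl _, cbc, cac.symm, cbc.symm,
        Commute.refl _]

/-- from the three shapes to `IsProd` -/
theorem isProd_of_inv {f : G} (hf : orderOf f = 2)
    (h : f = 1 ∨ f ∈ D ∨ (∃ a ∈ D, ∃ b ∈ D, a ≠ b ∧ a * b = b * a ∧ f = a * b) ∨
      ∃ a ∈ D, ∃ b ∈ D, ∃ c ∈ D, a ≠ b ∧ a ≠ c ∧ b ≠ c ∧ a * b = b * a ∧ a * c = c * a ∧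
        b * c = c * b ∧ f = a * b * c) : ∃ m, 1 ≤ m ∧ m ≤ 3 ∧ IsProd D m f := by
  rcases h with h | h | ⟨a, ha, b, hb, hab, cab, rfl⟩ |
    ⟨a, ha, b, hb, c, hc, hab, hac, hbc, cab, cac, cbc, rfl⟩
  · rw [h, orderOf_one] at hf
    omega
  · exact ⟨1, le_rfl, by norm_num, [f], by simp, rfl, by simpa using h, by simp,
      List.prod_singleton⟩
  · refine ⟨2, by norm_num, by norm_num, [a, b], by simpa using hab, rfl, ?_, ?_, by simp⟩
    · intro x hx
      simp only [List.mem_cons, List.not_mem_nil, or_false] at hx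
      rcases hx with rfl | rfl
      exacts [ha, hb]
    · intro x hx y hy
      simp only [List.mem_cons, List.not_mem_nil, or_false] at hx hy
      rcases hx with rfl | rfl <;> rcases hy with rfl | rfl
      exacts [Commute.refl _, cab, Commute.symm cab, Commute.refl _]
  · refine ⟨3, by norm_num, by norm_num, [a, b, c], by simp [hab, hac, hbc], rfl, ?_, ?_, by
      simp [mul_assoc]⟩
    · intro x hx
      simp only [List.mem_cons, List.not_mem_nil, or_false] at hx
      rcases hx with rfl | rfl | rfl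
      exacts [ha, hb, hc]
    · intro x hx y hy
      simp only [List.mem_cons, List.not_mem_nil, or_false] at hx hy
      rcases hx with rfl | rfl | rfl <;> rcases hy with rfl | rfl | rfl
      exacts [Commute.refl _, cab, cac, Commute.symm cab, Commute.refl _, cbc, Commute.symm cac,
        Commute.symm cbc, Commute.refl _]

/-- **The classes of involutions**, general form. -/
theorem classes (hT : IsThreeTranspositionSet D) (hN : NoRel D 5)
    (t1 : ∀ a ∈ D, ∀ a' ∈ D, ∃ g : G, g * a * g⁻¹ = a')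
    (t2 : ∀ a ∈ D, ∀ b ∈ D, ∀ a' ∈ D, ∀ b' ∈ D, a ≠ b → a' ≠ b' → a * b = b * a →
      a' * b' = b' * a' → ∃ g : G, g * a * g⁻¹ = a' ∧ g * b * g⁻¹ = b')
    (t3 : ∀ a ∈ D, ∀ b ∈ D, ∀ d ∈ D, ∀ a' ∈ D, ∀ b' ∈ D, ∀ d' ∈ D, a ≠ b → a ≠ d → b ≠ d →
      a' ≠ b' → a' ≠ d' → b' ≠ d' → a * b = b * a → a * d = d * a → b * d = d * b →
      a' * b' = b' * a' → a' * d' = d' * a' → b' * d' = d' * b' →
      ∃ g : G, g * a * g⁻¹ = a' ∧ g * b * g⁻¹ = b' ∧ g * d * g⁻¹ = d')
    (tri : ∃ a ∈ D, ∃ b ∈ D, ∃ c ∈ D, a ≠ b ∧ a ≠ c ∧ b ≠ c ∧ Commute a b ∧ Commute a c ∧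
      Commute b c)
    (inv : ∀ f : G, f * f = 1 → f = 1 ∨ f ∈ D ∨
      (∃ a ∈ D, ∃ b ∈ D, a ≠ b ∧ a * b = b * a ∧ f = a * b) ∨
      ∃ a ∈ D, ∃ b ∈ D, ∃ c ∈ D, a ≠ b ∧ a ≠ c ∧ b ≠ c ∧ a * b = b * a ∧ a * c = c * a ∧
        b * c = c * b ∧ f = a * b * c) :
    (∀ x : G, orderOf x = 2 → ∃ m : ℕ, 1 ≤ m ∧ m ≤ 3 ∧ IsProd D m x) ∧
    (∀ m : ℕ, 1 ≤ m → m ≤ 3 → (∃ x : G, orderOf x = 2 ∧ IsProd D m x) ∧
      ∀ x y : G, IsProd D m x → IsProd D m y → IsConj x y) ∧
    ∀ (m m' : ℕ) (x : G), 1 ≤ m → m ≤ 3 → 1 ≤ m' → m' ≤ 3 → IsProd D m x → IsProd D m' x →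
      m = m' := by
  refine ⟨?_, ?_, ?_⟩
  · intro x hx
    refine isProd_of_inv hx (inv x ?_)
    rw [← pow_two, ← hx, pow_orderOf_eq_one]
  · intro m h1 h3
    refine ⟨?_, fun x y hx hy => isConj_of_trans t1 t2 t3 h3 hx hy⟩
    obtain ⟨a, ha, b, hb, c, hc, hab, hac, hbc, cab, cac, cbc⟩ := tri
    obtain ⟨x, hx⟩ := exists_isProd ha hb hc hab hac hbc cab cac cbc h1 h3
    exact ⟨x, hx.orderOf hT hN h1 h3, hx⟩
  · intro m m' x _ h3 _ h3' hx hx'
    exact hx.unique hT hN h3 h3' hx'

end Cfsg.Agent.H815.InvM
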